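import Cfsg.Agent.Lib.ToddCox.TIO.Lv0
set_option autoImplicit false
set_option maxRecDepth 100000
namespace Cfsg.Agent.Lib.ToddCox.TIO

abbrev gen : ℕ → PresentedGroup Cfsg.Agent.Lib.ToddCox.TIT.rels := genP Cfsg.Agent.Lib.ToddCox.TIT.rels Cfsg.Agent.Lib.ToddCox.TIT.LT

theorem hLT : ∀ y, y < 4 → relW Cfsg.Agent.Lib.ToddCox.TIT.sg (Cfsg.Agent.Lib.ToddCox.TIT.LT.getD y 1) = [y] := by decide +kernel
theorem hLm : ∀ w ∈ L, ∀ a ∈ w, a < 4 := by decide +kernel
theorem low {ρ : PresentedGroup Cfsg.Agent.Lib.ToddCox.TIT.rels →* Equiv.Perm (Fin 1600)}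
    (hρ : ∀ r (i : Fin 1600), ((ρ (PresentedGroup.mk Cfsg.Agent.Lib.ToddCox.TIT.rels r) i : Fin 1600) : ℕ) = tabW Cfsg.Agent.Lib.ToddCox.TIT.tab (relW Cfsg.Agent.Lib.ToddCox.TIT.sg r) i) :
    17971200 ≤ Nat.card (sgsG (fun w => ρ (wordVal gen w)) L 0) := by
  have hel : ∀ w ∈ L, ∀ i : Fin 1600, (((fun w => ρ (wordVal gen w)) w i : Fin 1600) : ℕ) = tabW Cfsg.Agent.Lib.ToddCox.TIT.tab w i :=
    fun w hw i => rep_word hρ hLT (hLm w hw) i
  have h3 : 1 ≤ Nat.card (sgsG (fun w => ρ (wordVal gen w)) L 10) := sgsG_pos _ _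
  have c2 : ∀ k, k < 12 → chkOrbPos Cfsg.Agent.Lib.ToddCox.TIT.tab L 7 1 12 1600 (fun q => orbR (Nat.add 2536 q)) k = true :=
    defs_of_bits 12 11 1 (by norm_num) (by
      intro j hj
      interval_cases j
      · exact lv2_0
      )
  have h2 : 12 * 1 ≤ Nat.card (sgsG (fun w => ρ (wordVal gen w)) L 7) :=
    le_trans (Nat.mul_le_mul_left 12 h3) (level_bound (by norm_num) (by norm_num) hel fx2 c2)
  norm_num at h2
  have c1 : ∀ k, k < 936 → chkOrbPos Cfsg.Agent.Lib.ToddCox.TIT.tab L 4 664 936 1600 (fun q => orbR (Nat.add 1600 q)) k = true :=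
    defs_of_bits 936 11 1 (by norm_num) (by
      intro j hj
      interval_cases j
      · exact lv1_0
      )
  have h1 : 936 * 12 ≤ Nat.card (sgsG (fun w => ρ (wordVal gen w)) L 4) :=
    le_trans (Nat.mul_le_mul_left 936 h2) (level_bound (by norm_num) (by norm_num) hel fx1 c1)
  norm_num at h1
  have c0 : ∀ k, k < 1600 → chkOrbPos Cfsg.Agent.Lib.ToddCox.TIT.tab L 0 0 1600 1600 (fun q => orbR (Nat.add 0 q)) k = true :=
    defs_of_bits 1600 11 1 (by norm_num) (by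
      intro j hj
      interval_cases j
      · exact lv0_0
      )
  have h0 : 1600 * 11232 ≤ Nat.card (sgsG (fun w => ρ (wordVal gen w)) L 0) :=
    le_trans (Nat.mul_le_mul_left 1600 h1) (level_bound (by norm_num) (by norm_num) hel fx0 c0)
  norm_num at h0
  exact h0
end Cfsg.Agent.Lib.ToddCox.TIO
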