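import Cfsg.Agent.Lib.ToddCox.TIO.OrbD
set_option autoImplicit false
set_option maxRecDepth 100000
namespace Cfsg.Agent.Lib.ToddCox.TIO
open Cfsg.Agent.Lib.ToddCox.TIT in
theorem lv0_0 : allBits (fun k => bif Nat.blt k 1600 then chkOrbPos Cfsg.Agent.Lib.ToddCox.TIT.tab L 0 0 1600 1600 (fun q => orbR (Nat.add 0 q)) k else true) 11 0 = true := by decide +kernel
theorem fx0 : ∀ w ∈ L.drop 4, tabW Cfsg.Agent.Lib.ToddCox.TIT.tab w 0 = 0 := by decide +kernel
theorem lv1_0 : allBits (fun k => bif Nat.blt k 936 then chkOrbPos Cfsg.Agent.Lib.ToddCox.TIT.tab L 4 664 936 1600 (fun q => orbR (Nat.add 1600 q)) k else true) 11 0 = true := by decide +kernel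
theorem fx1 : ∀ w ∈ L.drop 7, tabW Cfsg.Agent.Lib.ToddCox.TIT.tab w 664 = 664 := by decide +kernel
theorem lv2_0 : allBits (fun k => bif Nat.blt k 12 then chkOrbPos Cfsg.Agent.Lib.ToddCox.TIT.tab L 7 1 12 1600 (fun q => orbR (Nat.add 2536 q)) k else true) 11 0 = true := by decide +kernel
theorem fx2 : ∀ w ∈ L.drop 10, tabW Cfsg.Agent.Lib.ToddCox.TIT.tab w 1 = 1 := by decide +kernel
end Cfsg.Agent.Lib.ToddCox.TIO
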